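import Cfsg.Agent.H755.S8.KL

/-!
# Class numbers by zeros of characters at an element of order nine (helper81, S4908)

* `card_ne_zero_le` : the number of irreducible characters which do not vanish at `z` is at most `|C_T(z)|`;
* `nine_dvd` : `χ(q) = 0 = χ(q ^ 3)`, `q` of order `9`, implies `9 ∣ χ(1)`;
* `card_conj_le9` : `k(T) ≤ |C(q)| + |C(q ^ 3)| + ∑_{p ∈ s} c_p + |T| / (9 ∏ s)²`.
-/

set_option autoImplicit false
set_option linter.unusedSectionVars false

universe u

namespace Cfsg.Agent.H81.S8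

open Cfsg Cfsg.Agent.Characters.Core Cfsg.Agent.H686.CharKit
open Cfsg.Agent.OddOrderCharacters.VChar Cfsg.Agent.OddOrderCharacters.PF13.SumBound
open Cfsg.Agent.H755.S8 (cent_pow)
open scoped ComplexConjugate

variable {T : Type u} [Group T] [Finite T]

/-- units modulo `n` lift to units modulo a multiple -/
theorem exists_lift {n N i : ℕ} (hN : N ≠ 0) (h : n ∣ N) (hi : i.Coprime n) :
    ∃ m : ℕ, m.Coprime N ∧ m ≡ i [MOD n] := by
  have : NeZero N := ⟨hN⟩
  obtain ⟨u, hu⟩ := ZMod.unitsMap_surjective h (ZMod.unitOfCoprime i hi)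
  refine ⟨(u : ZMod N).val, ZMod.val_coe_unit_coprime u, ?_⟩
  have h1 := congrArg Units.val hu
  rw [ZMod.unitsMap_val, ZMod.coe_unitOfCoprime] at h1
  rw [← ZMod.natCast_eq_natCast_iff, ← h1, ZMod.natCast_val]

/-- zeros of characters and powers -/
theorem zero_pow {χ : T → ℂ} (hχ : IsGeneralizedCharacter T χ) {x : T} (h0 : χ x = 0) {i : ℕ}
    (hi : i.Coprime (orderOf x)) : χ (x ^ i) = 0 := by
  obtain ⟨m, hm, hmi⟩ := exists_lift Nat.card_pos.ne' (orderOf_dvd_natCard x) hi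
  obtain ⟨σ, hσ⟩ := gen_exists_ringEquiv (G := T) hm
  have h1 := hσ χ hχ x
  rw [h0, map_zero] at h1
  rw [← pow_eq_pow_iff_modEq.2 hmi]
  exact h1.symm

/-- the irreducible characters which do not vanish at `z` -/
theorem card_ne_zero_le (z : T) [Fintype (IrrCharacter T)]
    [DecidablePred fun χ : IrrCharacter T => (χ : T → ℂ) z ≠ 0] :
    (Finset.univ.filter fun χ : IrrCharacter T => (χ : T → ℂ) z ≠ 0).card ≤
      Nat.card (Subgroup.centralizer ({z} : Set T)) := by
  classical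
  have := Fintype.ofFinite T
  let X : Finset T := Finset.univ.filter fun g => ∃ m : ℕ, m.Coprime (Nat.card T) ∧ g = z ^ m
  have hXz : ∀ g ∈ X, ∃ m : ℕ, m.Coprime (Nat.card T) ∧ g = z ^ m := fun g hg => (Finset.mem_filter.1 hg).2
  have hX : ∀ g ∈ X, ∀ m : ℕ, m.Coprime (Nat.card T) → g ^ m ∈ X := by
    intro g hg m hm
    obtain ⟨k, hk, rfl⟩ := hXz g hg
    exact Finset.mem_filter.2 ⟨Finset.mem_univ _, k * m, hk.mul_left hm, (pow_mul z k m).symm⟩
  have hne : X.Nonempty := ⟨z, Finset.mem_filter.2 ⟨Finset.mem_univ _, 1, Nat.coprime_one_left _, (pow_one z).symm⟩⟩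
  have h1 : ∀ χ ∈ (Finset.univ.filter fun χ : IrrCharacter T => (χ : T → ℂ) z ≠ 0),
      (X.card : ℝ) ≤ ∑ g ∈ X, ‖(χ : T → ℂ) g‖ ^ 2 := by
    intro χ hχ
    have hχ' := (Finset.mem_filter.1 hχ).2
    have h := card_le_sum_sq (G := T) ({χ} : Finset (IrrCharacter T))
      (fun χ => (χ : T → ℂ)) (fun i _ => gen_of_irr i.2) X hX ?_
    · simpa using h
    · intro g hg
      refine ⟨χ, Finset.mem_singleton_self χ, ?_⟩
      obtain ⟨m, hm, rfl⟩ := hXz g hg
      obtain ⟨σ, hσ⟩ := gen_exists_ringEquiv (G := T) hm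
      rw [← hσ _ (gen_of_irr χ.2) z]
      exact fun h => hχ' ((map_eq_zero σ).1 h)
  have h2 := Finset.sum_le_sum h1
  rw [Finset.sum_const, nsmul_eq_mul, Finset.sum_comm] at h2
  have h3 : ∀ g ∈ X, ∑ χ ∈ (Finset.univ.filter fun χ : IrrCharacter T => (χ : T → ℂ) z ≠ 0),
      ‖(χ : T → ℂ) g‖ ^ 2 ≤ (Nat.card (Subgroup.centralizer ({z} : Set T)) : ℝ) := by
    intro g hg
    obtain ⟨m, hm, rfl⟩ := hXz g hg
    have h4 := sum_normSq (G := T) (z ^ m)
    rw [cent_pow hm] at h4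
    rw [← h4]
    refine (Finset.sum_le_sum_of_subset_of_nonneg (Finset.subset_univ _) fun _ _ _ => by positivity).trans_eq ?_
    exact Finset.sum_congr rfl fun χ _ => (Complex.normSq_eq_norm_sq _).symm
  have h5 := h2.trans (Finset.sum_le_sum h3)
  rw [Finset.sum_const, nsmul_eq_mul, mul_comm] at h5
  have h6 : (0 : ℝ) < X.card := by exact_mod_cast hne.card_pos
  exact_mod_cast le_of_mul_le_mul_left h5 h6

/-- a character which vanishes on `H \ {1}` has degree divisible by `|H|` -/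
theorem card_dvd_deg (χ : IrrCharacter T) (H : Subgroup T) (h : ∀ w ∈ H, w ≠ 1 → (χ : T → ℂ) w = 0) :
    Nat.card H ∣ charDegree (χ : T → ℂ) := by
  classical
  have := Fintype.ofFinite H
  obtain ⟨n, hn⟩ := gen_inner (G := H) (gen_restrict H (gen_of_irr χ.2)) (gen_of_char isCharacter_one)
  have h1 : ∑ g : H, (χ : T → ℂ) g * conj ((1 : H → ℂ) g) = (χ : T → ℂ) 1 := by
    rw [Finset.sum_eq_single (1 : H)]
    · simp
    · intro w _ hw
      rw [h w w.2 (fun h' => hw (Subtype.ext h')), zero_mul]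
    · intro h'
      exact absurd (Finset.mem_univ _) h'
  rw [classInner, h1, ← charDegree_irr χ] at hn
  have hc : (Nat.card H : ℂ) ≠ 0 := by exact_mod_cast Nat.card_pos.ne'
  have h2 : (charDegree (χ : T → ℂ) : ℂ) = Nat.card H * n := by
    field_simp at hn
    exact hn
  have h3 : (charDegree (χ : T → ℂ) : ℤ) = Nat.card H * n := by exact_mod_cast h2
  exact Int.natCast_dvd_natCast.1 ⟨n, h3⟩

theorem nine_dvd {q : T} (hq : orderOf q = 9) (χ : IrrCharacter T) (h1 : (χ : T → ℂ) q = 0)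
    (h3 : (χ : T → ℂ) (q ^ 3) = 0) : 9 ∣ charDegree (χ : T → ℂ) := by
  have h := card_dvd_deg χ (Subgroup.zpowers q) ?_
  · rwa [Nat.card_zpowers, hq] at h
  · intro w hw hw1
    obtain ⟨i, hi⟩ : ∃ i : ℕ, q ^ i = w := by
      rw [← mem_powers_iff_mem_zpowers] at hw
      exact hw
    have hi' : q ^ (i % 9) = w := by rw [← hi, ← hq, pow_mod_orderOf]
    have hlt : i % 9 < 9 := Nat.mod_lt _ (by norm_num)
    have hq3 : orderOf (q ^ 3) = 3 := by rw [orderOf_pow, hq]; rfl
    generalize i % 9 = j at hi' hlt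
    have hg := gen_of_irr χ.2
    interval_cases j
    · exact absurd (by rw [← hi', pow_zero]) hw1
    · rw [← hi']; exact zero_pow hg h1 (by rw [hq]; decide)
    · rw [← hi']; exact zero_pow hg h1 (by rw [hq]; decide)
    · rw [← hi']; exact h3
    · rw [← hi']; exact zero_pow hg h1 (by rw [hq]; decide)
    · rw [← hi']; exact zero_pow hg h1 (by rw [hq]; decide)
    · rw [← hi', show q ^ 6 = (q ^ 3) ^ 2 by rw [← pow_mul]]; exact zero_pow hg h3 (by rw [hq3]; decide)
    · rw [← hi']; exact zero_pow hg h1 (by rw [hq]; decide)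
    · rw [← hi']; exact zero_pow hg h1 (by rw [hq]; decide)

/-- **the class number by an element of order nine** -/
theorem card_conj_le9 {q : T} (hq : orderOf q = 9) (s : Finset ℕ) (hs : ∀ p ∈ s, p.Prime ∧ p ≠ 3) (c : ℕ → ℕ)
    (hc : ∀ p ∈ s, ∃ z : T, (∃ k : ℕ, orderOf z = p ^ k) ∧ Nat.card (Subgroup.centralizer ({z} : Set T)) ≤ c p) :
    Nat.card (ConjClasses T) ≤ Nat.card (Subgroup.centralizer ({q} : Set T)) +
      Nat.card (Subgroup.centralizer ({q ^ 3} : Set T)) + ∑ p ∈ s, c p + Nat.card T / (9 * ∏ p ∈ s, p) ^ 2 := by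
  classical
  have := finite_irr (G := T)
  have := Fintype.ofFinite (IrrCharacter T)
  rw [← card_irr, Nat.card_eq_fintype_card]
  set A := (Finset.univ.filter fun χ : IrrCharacter T => (χ : T → ℂ) q ≠ 0) ∪
    (Finset.univ.filter fun χ : IrrCharacter T => (χ : T → ℂ) (q ^ 3) ≠ 0) ∪
    s.biUnion fun p => Finset.univ.filter fun χ : IrrCharacter T => ¬ p ∣ charDegree (χ : T → ℂ) with hA
  have h1 : A.card ≤ Nat.card (Subgroup.centralizer ({q} : Set T)) +
      Nat.card (Subgroup.centralizer ({q ^ 3} : Set T)) + ∑ p ∈ s, c p := by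
    refine (Finset.card_union_le _ _).trans (Nat.add_le_add ((Finset.card_union_le _ _).trans
      (Nat.add_le_add (card_ne_zero_le q) (card_ne_zero_le (q ^ 3)))) ?_)
    refine Finset.card_biUnion_le.trans (Finset.sum_le_sum fun p hp => ?_)
    obtain ⟨z, hz, hz'⟩ := hc p hp
    have : Fact p.Prime := ⟨(hs p hp).1⟩
    obtain ⟨M, hM⟩ := Cfsg.Agent.Blocks.Knorr.exists_isPModular p
    refine le_trans (Finset.card_le_card fun χ hχ => ?_) ((card_ne_zero_le z).trans hz')
    rw [Finset.mem_filter] at hχ ⊢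
    exact ⟨hχ.1, Cfsg.Agent.H703.K6.apply_ne_zero hM χ hχ.2 hz⟩
  have hpos : 0 < (9 * ∏ p ∈ s, p) ^ 2 :=
    pow_pos (Nat.mul_pos (by norm_num) (Finset.prod_pos fun p hp => (hs p hp).1.pos)) 2
  have h2 : Aᶜ.card ≤ Nat.card T / (9 * ∏ p ∈ s, p) ^ 2 := by
    rw [Nat.le_div_iff_mul_le hpos, ← sum_deg_sq (G := T), ← smul_eq_mul, ← Finset.sum_const]
    refine (Finset.sum_le_sum fun χ hχ => ?_).trans (Finset.sum_le_sum_of_subset (Finset.subset_univ Aᶜ))
    have hχ' := Finset.mem_compl.1 hχ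
    rw [hA, Finset.mem_union, Finset.mem_union, not_or, not_or] at hχ'
    obtain ⟨⟨ha, hb⟩, hc'⟩ := hχ'
    have ha' : (χ : T → ℂ) q = 0 := by
      by_contra hcon
      exact ha (Finset.mem_filter.2 ⟨Finset.mem_univ _, hcon⟩)
    have hb' : (χ : T → ℂ) (q ^ 3) = 0 := by
      by_contra hcon
      exact hb (Finset.mem_filter.2 ⟨Finset.mem_univ _, hcon⟩)
    refine Nat.pow_le_pow_left (Nat.le_of_dvd (charDegree_pos χ) ?_) 2
    refine Nat.Coprime.mul_dvd_of_dvd_of_dvd ?_ (nine_dvd hq χ ha' hb') ?_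
    · refine Nat.Coprime.prod_right fun p hp => ?_
      rw [show 9 = 3 ^ 2 by norm_num]
      exact Nat.Coprime.pow_left 2 ((Nat.coprime_primes (by norm_num) (hs p hp).1).2 (hs p hp).2.symm)
    · refine Finset.prod_primes_dvd _ (fun p hp => (hs p hp).1.prime) fun p hp => ?_
      by_contra hcon
      exact hc' (Finset.mem_biUnion.2 ⟨p, hp, Finset.mem_filter.2 ⟨Finset.mem_univ _, hcon⟩⟩)
  rw [← Finset.card_add_card_compl A]
  exact Nat.add_le_add h1 h2

end Cfsg.Agent.H81.S8
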